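/-
A Landazuri--Seitz type bound for `Sp_{2n}(q)`, `q` odd.
-/
import Mathlib
import Cfsg.Agent.Lib.CrossChar.Weights

set_option autoImplicit false
set_option linter.unusedSectionVars false

namespace Cfsg.Agent.Lib.CrossChar.Sp

open Matrix
open Cfsg.Agent.Lib.CrossChar.Weights

variable {F : Type*} [Field F] {n : ℕ}

/-- Symmetric matrices. -/
def symSub (n : ℕ) (F : Type*) [Field F] : Submodule F (Matrix (Fin n) (Fin n) F) where
  carrier := {S | Sᵀ = S}
  add_mem' := by
    intro a b ha hb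
    simp only [Set.mem_ofPred_eq] at *
    rw [transpose_add, ha, hb]
  zero_mem' := by simp
  smul_mem' := by
    intro c a ha
    simp only [Set.mem_ofPred_eq] at *
    rw [transpose_smul, ha]

lemma mem_symSub {S : Matrix (Fin n) (Fin n) F} : S ∈ symSub n F ↔ Sᵀ = S := Iff.rfl

/-- The unipotent radical of the Siegel parabolic. -/
def spU (S : symSub n F) : Matrix.symplecticGroup (Fin n) F :=
  ⟨fromBlocks 1 S.1 0 1, by
    rw [SymplecticGroup.mem_iff, J, fromBlocks_transpose, fromBlocks_multiply, fromBlocks_multiply]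
    have h := S.2
    rw [mem_symSub] at h
    simp [h]⟩

/-- The Levi factor of the Siegel parabolic. -/
def spL (g : GL (Fin n) F) : Matrix.symplecticGroup (Fin n) F :=
  ⟨fromBlocks g.val 0 0 (g⁻¹).valᵀ, by
    rw [SymplecticGroup.mem_iff, J, fromBlocks_transpose, fromBlocks_multiply, fromBlocks_multiply]
    have h1 : g.val * (g⁻¹).val = 1 := by simp
    have h2 : (g⁻¹).valᵀ * g.valᵀ = 1 := by
      rw [← transpose_mul]
      simp
    simp only [Matrix.mul_one, Matrix.one_mul, Matrix.mul_zero, Matrix.zero_mul, add_zero, zero_add, Matrix.mul_neg,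
      Matrix.neg_mul, transpose_zero, transpose_transpose, h1, h2, neg_zero]⟩

lemma spU_zero : spU (0 : symSub n F) = 1 := by
  apply Subtype.ext
  change fromBlocks 1 (0 : Matrix (Fin n) (Fin n) F) 0 1 = 1
  simp

lemma spU_add (S S' : symSub n F) : spU (S + S') = spU S * spU S' := by
  apply Subtype.ext
  change fromBlocks 1 (S.1 + S'.1) 0 1 = fromBlocks 1 S.1 0 1 * fromBlocks 1 S'.1 0 1
  rw [fromBlocks_multiply]
  simp [add_comm]

/-- Congruence on symmetric matrices. -/
def congr (g : Matrix (Fin n) (Fin n) F) (S : symSub n F) : symSub n F :=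
  ⟨g * S.1 * gᵀ, by
    have h := S.2
    rw [mem_symSub] at h ⊢
    simp [transpose_mul, h, Matrix.mul_assoc]⟩

lemma spL_spU (g : GL (Fin n) F) (S : symSub n F) :
    spL g * spU S * (spL g)⁻¹ = spU (congr g.val S) := by
  rw [mul_inv_eq_iff_eq_mul]
  apply Subtype.ext
  change fromBlocks g.val 0 0 (g⁻¹).valᵀ * fromBlocks 1 S.1 0 1 =
    fromBlocks 1 (g.val * S.1 * g.valᵀ) 0 1 * fromBlocks g.val 0 0 (g⁻¹).valᵀ
  rw [fromBlocks_multiply, fromBlocks_multiply]
  have h2 : g.valᵀ * (g⁻¹).valᵀ = 1 := by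
    rw [← transpose_mul]
    simp
  simp only [Matrix.mul_one, Matrix.one_mul, Matrix.mul_zero, Matrix.zero_mul, add_zero, zero_add, Matrix.mul_assoc, h2]

/-- Pairing on symmetric matrices. -/
noncomputable def pair (n : ℕ) (F : Type*) [Field F] : symSub n F →ₗ[F] symSub n F →ₗ[F] F :=
  LinearMap.mk₂ F (fun T S => trace (T.1 * S.1))
    (by intro a b c; simp [add_mul])
    (by intro a b c; simp [smul_mul_assoc])
    (by intro a b c; simp [mul_add])
    (by intro a b c; simp [mul_smul_comm])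

lemma pair_apply (T S : symSub n F) : pair n F T S = trace (T.1 * S.1) := rfl

lemma pair_congr (g : Matrix (Fin n) (Fin n) F) (T S : symSub n F) :
    pair n F T (congr g S) = pair n F (congr gᵀ T) S := by
  rw [pair_apply, pair_apply]
  change trace (T.1 * (g * S.1 * gᵀ)) = trace (gᵀ * T.1 * gᵀᵀ * S.1)
  rw [transpose_transpose, ← Matrix.mul_assoc, Matrix.trace_mul_comm]
  simp only [Matrix.mul_assoc]

lemma pair_comm (T S : symSub n F) : pair n F T S = pair n F S T := by
  rw [pair_apply, pair_apply, Matrix.trace_mul_comm]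

lemma exists_pair_ne (h2 : (2 : F) ≠ 0) (T : symSub n F) (hT : T ≠ 0) : ∃ S, pair n F T S ≠ 0 := by
  classical
  have h1 : ∃ i j, T.1 i j ≠ 0 := by
    by_contra hc
    push Not at hc
    apply hT
    apply Subtype.ext
    ext i j
    simpa using hc i j
  obtain ⟨i, j, hij⟩ := h1
  have hT' : T.1ᵀ = T.1 := T.2
  have hji : T.1 j i = T.1 i j := by
    have := congrFun (congrFun hT' i) j
    simpa using this
  refine ⟨⟨Matrix.single i j 1 + Matrix.single j i 1, ?_⟩, ?_⟩
  · rw [mem_symSub, transpose_add]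
    simp [add_comm]
  · rw [pair_apply]
    simp only [Matrix.mul_add, Matrix.trace_add]
    rw [Matrix.trace_mul_single, Matrix.trace_mul_single]
    simp only [MulOpposite.op_one, one_smul]
    rw [hji, ← two_mul]
    exact mul_ne_zero h2 hij

lemma exists_vec (h2 : (2 : F) ≠ 0) (T : symSub n F) (hT : T ≠ 0) : ∃ v : Fin n → F, v ⬝ᵥ T.1 *ᵥ v ≠ 0 := by
  classical
  have h1 : ∃ i j, T.1 i j ≠ 0 := by
    by_contra hc
    push Not at hc
    apply hT
    apply Subtype.ext
    ext i j
    simpa using hc i j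
  obtain ⟨i, j, hij⟩ := h1
  have hT' : T.1ᵀ = T.1 := T.2
  have hji : T.1 j i = T.1 i j := by
    have := congrFun (congrFun hT' i) j
    simpa using this
  by_contra hc
  push Not at hc
  have hi : T.1 i i = 0 := by simpa using hc (Pi.single i 1)
  have hj : T.1 j j = 0 := by simpa using hc (Pi.single j 1)
  have h3 := hc (Pi.single i 1 + Pi.single j 1)
  simp only [Matrix.mulVec_add, dotProduct_add, add_dotProduct] at h3
  simp only [mulVec_single_one, single_one_dotProduct, col_apply] at h3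
  rw [hi, hj, hji, zero_add, add_zero, ← two_mul] at h3
  exact (mul_ne_zero h2 hij) h3

section gm

variable (i₀ : Fin n) (v y : Fin n → F)

/-- An auxiliary invertible matrix. -/
def gm : Matrix (Fin n) (Fin n) F :=
  Matrix.of fun k j => (if k = j ∧ k ≠ i₀ then 1 else 0) + v k * y j

lemma gm_mulVec (w : Fin n → F) (k : Fin n) :
    (gm i₀ v y *ᵥ w) k = (if k ≠ i₀ then w k else 0) + v k * (y ⬝ᵥ w) := by
  simp only [mulVec, dotProduct, gm, of_apply, add_mul, Finset.sum_add_distrib, Finset.mul_sum, mul_assoc]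
  congr 1
  by_cases hk : k = i₀
  · simp [hk]
  · simp [hk, ite_and]

variable {i₀ v y}

lemma gm_isUnit (hv : v i₀ ≠ 0) (hy : y i₀ ≠ 0) : IsUnit (gm i₀ v y) := by
  classical
  rw [← Matrix.mulVec_injective_iff_isUnit]
  have hinj : ∀ w, gm i₀ v y *ᵥ w = 0 → w = 0 := by
    intro w hw
    have h1 : y ⬝ᵥ w = 0 := by
      have := congrFun hw i₀
      rw [gm_mulVec] at this
      simpa [hv] using this
    have h2 : ∀ k, k ≠ i₀ → w k = 0 := by
      intro k hk
      have := congrFun hw k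
      rw [gm_mulVec, h1] at this
      simpa [hk] using this
    have h3 : y i₀ * w i₀ = 0 := by
      rw [← h1, dotProduct, Finset.sum_eq_single i₀]
      · intro k _ hk
        rw [h2 k hk, mul_zero]
      · simp
    have h4 : w i₀ = 0 := (mul_eq_zero.1 h3).resolve_left hy
    ext k
    by_cases hk : k = i₀
    · rw [hk, h4]; rfl
    · exact h2 k hk
  intro w w' h
  have := hinj (w - w') (by rw [Matrix.mulVec_sub, sub_eq_zero]; exact h)
  exact sub_eq_zero.1 this

lemma gm_col_self : (fun k => gm i₀ v y k i₀) = y i₀ • v := by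
  ext k
  by_cases hk : k = i₀ <;> simp [gm, hk, mul_comm]

lemma gm_col_ne {j : Fin n} (hj : j ≠ i₀) : (fun k => gm i₀ v y k j) = Pi.single j 1 + y j • v := by
  classical
  ext k
  by_cases hk : k = j
  · subst hk
    simp [gm, hj, mul_comm]
  · simp [gm, hk, mul_comm, Pi.single_apply]

lemma congr_entry (A T : Matrix (Fin n) (Fin n) F) (i j : Fin n) :
    (Aᵀ * T * A) i j = (fun k => A k i) ⬝ᵥ (T *ᵥ (fun k => A k j)) := by
  simp only [Matrix.mul_apply, dotProduct, mulVec, transpose_apply, Finset.sum_mul, Finset.mul_sum, mul_assoc]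
  rw [Finset.sum_comm]

end gm

/-- The orbit bound. -/
theorem orbit_bound [Fintype F] [DecidableEq F] (h2 : (2 : F) ≠ 0) (T : symSub n F) (hT : T ≠ 0) {q : ℕ} (hq : Fintype.card F = q)
    (hn : 1 ≤ n) :
    ∃ W : Finset (Matrix (Fin n) (Fin n) F),
      (∀ S ∈ W, ∃ g : GL (Fin n) F, S = g.valᵀ * T.1 * g.val) ∧ q ^ (n - 1) * (q - 1) / 2 ≤ W.card := by
  classical
  obtain ⟨v, hv⟩ := exists_vec h2 T hT
  obtain ⟨i₀, hi₀⟩ : ∃ i, v i ≠ 0 := by
    by_contra hc
    push Not at hc
    apply hv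
    have : v = 0 := funext hc
    rw [this]
    simp
  set c := v ⬝ᵥ T.1 *ᵥ v with hc
  let Y : Finset (Fin n → F) := Fintype.piFinset (fun j => if j = i₀ then Finset.univ.erase 0 else Finset.univ)
  have hY : ∀ y ∈ Y, y i₀ ≠ 0 := by
    intro y hy
    have := (Fintype.mem_piFinset.1 hy) i₀
    simpa using this
  have hcardY : Y.card = q ^ (n - 1) * (q - 1) := by
    rw [Fintype.card_piFinset, ← Finset.mul_prod_erase _ _ (Finset.mem_univ i₀)]
    have h1 : ∀ j ∈ Finset.univ.erase i₀, (if j = i₀ then (Finset.univ.erase (0 : F)) else Finset.univ).card = q := by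
      intro j hj
      rw [if_neg (Finset.ne_of_mem_erase hj), Finset.card_univ, hq]
    rw [Finset.prod_congr rfl h1]
    simp [Finset.card_erase_of_mem, hq, mul_comm]
  let Φ : (Fin n → F) → Matrix (Fin n) (Fin n) F := fun y => (gm i₀ v y)ᵀ * T.1 * gm i₀ v y
  have hΦ1 : ∀ y, Φ y i₀ i₀ = y i₀ * y i₀ * c := by
    intro y
    simp only [Φ]
    rw [congr_entry, gm_col_self, Matrix.mulVec_smul, smul_dotProduct, dotProduct_smul]
    simp [smul_eq_mul, mul_assoc, hc]
  have hΦ2 : ∀ y j, j ≠ i₀ → Φ y i₀ j = y i₀ * (v ⬝ᵥ T.1 *ᵥ (Pi.single j 1) + y j * c) := by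
    intro y j hj
    simp only [Φ]
    rw [congr_entry, gm_col_self, gm_col_ne hj, Matrix.mulVec_add, Matrix.mulVec_smul, smul_dotProduct, dotProduct_add, dotProduct_smul]
    simp [smul_eq_mul, hc]
  have hfib : ∀ a ∈ Y.image Φ, (Y.filter (fun y => Φ y = a)).card ≤ 2 := by
    intro a ha
    obtain ⟨y₀, hy₀, rfl⟩ := Finset.mem_image.1 ha
    have hinj : Set.InjOn (fun y : Fin n → F => y i₀) (Y.filter (fun y => Φ y = Φ y₀) : Finset (Fin n → F)) := by
      intro y hy y' hy' hyy
      simp only [Finset.coe_filter, Set.mem_ofPred_eq] at hy hy'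
      simp only at hyy
      have hne := hY y hy.1
      have heq : Φ y = Φ y' := hy.2.trans hy'.2.symm
      ext j
      by_cases hj : j = i₀
      · rw [hj, hyy]
      · have h3 := congrFun (congrFun heq i₀) j
        rw [hΦ2 _ _ hj, hΦ2 _ _ hj, hyy] at h3
        have h4 := mul_left_cancel₀ (hyy ▸ hne) h3
        have h5 := add_left_cancel h4
        exact mul_right_cancel₀ hv h5
    have hmaps : ∀ y ∈ Y.filter (fun y => Φ y = Φ y₀), y i₀ ∈ ({y₀ i₀, - y₀ i₀} : Finset F) := by
      intro y hy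
      have h3 := (Finset.mem_filter.1 hy).2
      have h4 := congrFun (congrFun h3 i₀) i₀
      rw [hΦ1, hΦ1] at h4
      have h5 := mul_right_cancel₀ hv h4
      have h6 : (y i₀ - y₀ i₀) * (y i₀ + y₀ i₀) = 0 := by
        linear_combination h5
      simp only [Finset.mem_insert, Finset.mem_singleton]
      rcases mul_eq_zero.1 h6 with h7 | h7
      · exact Or.inl (sub_eq_zero.1 h7)
      · exact Or.inr (eq_neg_of_add_eq_zero_left h7)
    have := Finset.card_le_card_of_injOn _ hmaps hinj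
    exact this.trans Finset.card_le_two
  refine ⟨Y.image Φ, ?_, ?_⟩
  · intro S hS
    obtain ⟨y, hy, rfl⟩ := Finset.mem_image.1 hS
    have hu := gm_isUnit hi₀ (hY y hy)
    exact ⟨hu.unit, rfl⟩
  · have h3 := Finset.card_le_mul_card_image Y 2 hfib
    rw [hcardY] at h3
    exact Nat.div_le_of_le_mul h3

/-- The bound. -/
theorem bound [Fintype F] {q : ℕ} (hq : Fintype.card F = q) (hodd : Odd q) (n : ℕ) (hn : 2 ≤ n)
    {K : Type*} [Field K] (hK : ringChar K ≠ ringChar F) {d : ℕ}
    (ρ : ↥(Matrix.symplecticGroup (Fin n) F) →* GL (Fin d) K)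
    (hker : ρ.ker ≤ Subgroup.center ↥(Matrix.symplecticGroup (Fin n) F)) :
    q ^ (n - 1) * (q - 1) / 2 ≤ d := by
  classical
  have h2 : (2 : F) ≠ 0 := by
    apply Ring.two_ne_zero
    intro h
    have := FiniteField.even_card_iff_char_two.1 h
    rw [hq] at this
    rw [Nat.odd_iff] at hodd
    omega
  obtain ⟨K', _, _, ψ, hψ, hc⟩ := exists_primitive F K hK
  let ρ' : ↥(Matrix.symplecticGroup (Fin n) F) →* GL (Fin d) K' :=
    (Matrix.GeneralLinearGroup.map (algebraMap K K')).comp ρ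
  have hρ' : ∀ g, ρ' g = 1 → g ∈ Subgroup.center ↥(Matrix.symplecticGroup (Fin n) F) := by
    intro g hg
    apply hker
    rw [MonoidHom.mem_ker]
    apply Units.ext
    ext i j
    have h1 := congrArg (fun t : GL (Fin d) K' => t.val i j) hg
    simp only [ρ', MonoidHom.comp_apply] at h1
    simp only [Units.val_one, Matrix.one_apply] at h1 ⊢
    apply (algebraMap K K').injective
    rw [show algebraMap K K' ((ρ g).val i j) = (Matrix.GeneralLinearGroup.map (algebraMap K K') (ρ g)).val i j from rfl, h1]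
    split_ifs <;> simp
  letI : Fintype (symSub n F) := Fintype.ofFinite _
  have hcard : (Fintype.card (symSub n F) : K') ≠ 0 := by
    rw [Module.card_eq_pow_finrank (K := F)]
    push_cast
    exact pow_ne_zero _ hc
  let p := pair n F
  have hnd : ∀ b : symSub n F, b ≠ 0 → ∃ a, p b a ≠ 0 := exists_pair_ne h2
  have hnd' : ∀ a : symSub n F, a ≠ 0 → ∃ b, p b a ≠ 0 := by
    intro a ha
    obtain ⟨b, hb⟩ := exists_pair_ne h2 a ha
    exact ⟨b, by rw [pair_comm]; exact hb⟩
  let u : symSub n F → Matrix (Fin d) (Fin d) K' := fun a => (ρ' (spU a)).val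
  have hu0 : u 0 = 1 := by
    simp [u, spU_zero]
  have hadd : ∀ a a', u (a + a') = u a * u a' := by
    intro a a'
    simp [u, spU_add]
  let i₀ : Fin n := ⟨0, by omega⟩
  let S₀ : symSub n F := ⟨Matrix.single i₀ i₀ 1, by rw [mem_symSub]; simp⟩
  have hne : u S₀ ≠ 1 := by
    intro h
    have h1 : ρ' (spU S₀) = 1 := Units.ext h
    have h3 := hρ' _ h1
    rw [Subgroup.mem_center_iff] at h3
    have h4 := h3 (SymplecticGroup.symJ (Fin n) F)
    have h5 := congrArg (fun g : ↥(Matrix.symplecticGroup (Fin n) F) => g.1 (Sum.inl i₀) (Sum.inl i₀)) h4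
    change (J (Fin n) F * fromBlocks 1 S₀.1 0 1 : Matrix (Fin n ⊕ Fin n) (Fin n ⊕ Fin n) F) (Sum.inl i₀) (Sum.inl i₀) =
      (fromBlocks 1 S₀.1 0 1 * J (Fin n) F : Matrix (Fin n ⊕ Fin n) (Fin n ⊕ Fin n) F) (Sum.inl i₀) (Sum.inl i₀) at h5
    rw [J, fromBlocks_multiply, fromBlocks_multiply] at h5
    simp [S₀] at h5
  obtain ⟨T, hT, hTw⟩ := exists_weight_ne_zero (p := p) (u := u) hψ hcard hu0 hadd hnd' _ hne
  obtain ⟨W, hW, hWc⟩ := orbit_bound h2 T hT hq (by omega)
  refine hWc.trans ?_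
  -- pull back to `symSub`
  have hall : ∀ S ∈ W, ∃ S' : symSub n F, S'.1 = S ∧ IsWeight ψ p u S' := by
    intro S hS
    obtain ⟨g, rfl⟩ := hW S hS
    refine ⟨congr g.valᵀ T, ?_, ?_⟩
    · change g.valᵀ * T.1 * g.valᵀᵀ = _
      rw [transpose_transpose]
    · refine hTw.conj (ρ' (spL g)) (congr g.val) ?_ ?_
      · intro a
        simp only [u]
        rw [← Units.val_mul, ← Units.val_mul, ← map_mul, ← map_inv, ← map_mul, spL_spU]
      · intro a
        exact pair_congr _ _ _
  choose! f hf1 hf2 using hall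
  have h5 := card_weights_le (p := p) (u := u) hψ hcard hnd (W.image f) (by
    intro b hb
    obtain ⟨S, hS, rfl⟩ := Finset.mem_image.1 hb
    exact hf2 S hS)
  rwa [Finset.card_image_of_injOn] at h5
  intro S hS S' hS' hSS
  have h6 : (f S).1 = (f S').1 := by rw [hSS]
  rwa [hf1 S hS, hf1 S' hS'] at h6

end Cfsg.Agent.Lib.CrossChar.Sp
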